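import Mathlib
import Cfsg.Prelude.Def_KGroupFacts
import Cfsg.Agent.Lib.Helper29.Stem

/-!
A Heisenberg-type central extension of a group `G` by `ZMod n`, built from two homomorphisms
`α β : G →* Multiplicative (ZMod n)` with the bilinear cocycle `(g, g') ↦ α g * β g'`.
It is a stem extension with kernel `ZMod n` as soon as two commuting elements `g`, `g'` of `G`
have `α g * β g' - α g' * β g = 1`.
-/

set_option autoImplicit false

namespace Cfsg.Agent.Lib.Helper29

open scoped commutatorElement

universe u v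

/-- The underlying type of the central extension of `G` by `ZMod n` with cocycle
`(g, g') ↦ α g * β g'`. -/
@[ext]
structure BilCover {G : Type u} [Group G] (n : ℕ) (α β : G →* Multiplicative (ZMod n)) :
    Type u where
  /-- the component in `G` -/
  fst : G
  /-- the central component -/
  snd : ZMod n

namespace BilCover

variable {G : Type u} [Group G] {n : ℕ} {α β : G →* Multiplicative (ZMod n)}

instance : Mul (BilCover n α β) :=
  ⟨fun x y => ⟨x.fst * y.fst,
    x.snd + y.snd + Multiplicative.toAdd (α x.fst) * Multiplicative.toAdd (β y.fst)⟩⟩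

instance : One (BilCover n α β) := ⟨⟨1, 0⟩⟩

instance : Inv (BilCover n α β) :=
  ⟨fun x => ⟨x.fst⁻¹,
    -x.snd + Multiplicative.toAdd (α x.fst) * Multiplicative.toAdd (β x.fst)⟩⟩

theorem mul_fst (x y : BilCover n α β) : (x * y).fst = x.fst * y.fst := rfl

theorem mul_snd (x y : BilCover n α β) : (x * y).snd =
    x.snd + y.snd + Multiplicative.toAdd (α x.fst) * Multiplicative.toAdd (β y.fst) := rfl

theorem one_fst : (1 : BilCover n α β).fst = 1 := rfl

theorem one_snd : (1 : BilCover n α β).snd = 0 := rfl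

theorem inv_fst (x : BilCover n α β) : (x⁻¹).fst = x.fst⁻¹ := rfl

theorem inv_snd (x : BilCover n α β) : (x⁻¹).snd =
    -x.snd + Multiplicative.toAdd (α x.fst) * Multiplicative.toAdd (β x.fst) := rfl

instance : Group (BilCover n α β) where
  mul_assoc x y z := by
    apply BilCover.ext
    · simp only [mul_fst, mul_assoc]
    · simp only [mul_fst, mul_snd, map_mul, toAdd_mul]
      ring
  one_mul x := by
    apply BilCover.ext
    · simp only [mul_fst, one_fst, one_mul]
    · simp only [mul_snd, one_fst, one_snd, map_one, toAdd_one]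
      ring
  mul_one x := by
    apply BilCover.ext
    · simp only [mul_fst, one_fst, mul_one]
    · simp only [mul_snd, one_fst, one_snd, map_one, toAdd_one]
      ring
  inv_mul_cancel x := by
    apply BilCover.ext
    · simp only [mul_fst, inv_fst, one_fst, inv_mul_cancel]
    · simp only [mul_snd, inv_fst, inv_snd, one_snd, map_inv, toAdd_inv]
      ring

/-- The projection onto `G`. -/
def proj (n : ℕ) (α β : G →* Multiplicative (ZMod n)) : BilCover n α β →* G where
  toFun x := x.fst
  map_one' := rfl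
  map_mul' _ _ := rfl

theorem proj_apply (x : BilCover n α β) : proj n α β x = x.fst := rfl

theorem proj_surjective : Function.Surjective (proj n α β) := fun g => ⟨⟨g, 0⟩, rfl⟩

/-- The inclusion of the central `ZMod n`. -/
def incl (n : ℕ) (α β : G →* Multiplicative (ZMod n)) :
    Multiplicative (ZMod n) →* BilCover n α β where
  toFun c := ⟨1, Multiplicative.toAdd c⟩
  map_one' := rfl
  map_mul' c d := by
    apply BilCover.ext
    · simp only [mul_fst, mul_one]
    · simp only [mul_snd, map_one, toAdd_one, toAdd_mul]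
      ring

theorem incl_injective : Function.Injective (incl n α β) := by
  intro c d h
  have := congrArg BilCover.snd h
  exact this

theorem range_incl : (incl n α β).range = (proj n α β).ker := by
  ext x
  rw [MonoidHom.mem_range, MonoidHom.mem_ker, proj_apply]
  constructor
  · rintro ⟨c, rfl⟩
    rfl
  · intro hx
    exact ⟨Multiplicative.ofAdd x.snd, BilCover.ext hx.symm rfl⟩

theorem ker_proj_le_center : (proj n α β).ker ≤ Subgroup.center (BilCover n α β) := by
  intro x hx
  rw [MonoidHom.mem_ker, proj_apply] at hx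
  rw [Subgroup.mem_center_iff]
  intro y
  apply BilCover.ext
  · simp only [mul_fst, hx, mul_one, one_mul]
  · simp only [mul_snd, hx, map_one, toAdd_one]
    ring

theorem finite [Finite G] [NeZero n] : Finite (BilCover n α β) := by
  have : Function.Injective (fun x : BilCover n α β => (x.fst, x.snd)) := by
    intro x y h
    exact BilCover.ext (congrArg Prod.fst h) (congrArg Prod.snd h)
  exact Finite.of_injective _ this

theorem ker_proj_le_commutator [NeZero n] (g g' : G) (hcomm : g * g' = g' * g)
    (hdet : Multiplicative.toAdd (α g) * Multiplicative.toAdd (β g') -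
      Multiplicative.toAdd (α g') * Multiplicative.toAdd (β g) = 1) :
    (proj n α β).ker ≤ commutator (BilCover n α β) := by
  have hz : incl n α β (Multiplicative.ofAdd 1) ∈ commutator (BilCover n α β) := by
    have h1 : incl n α β (Multiplicative.ofAdd 1) =
        ⁅(⟨g, 0⟩ : BilCover n α β), (⟨g', 0⟩ : BilCover n α β)⁆ := by
      rw [commutatorElement_def, eq_mul_inv_iff_mul_eq, eq_mul_inv_iff_mul_eq]
      apply BilCover.ext
      · simp only [mul_fst, incl, MonoidHom.coe_mk, OneHom.coe_mk, one_mul, hcomm]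
      · simp only [mul_snd, mul_fst, incl, MonoidHom.coe_mk, OneHom.coe_mk, map_one, toAdd_one,
          toAdd_ofAdd, one_mul]
        linear_combination -hdet
    rw [h1, commutator_def]
    exact Subgroup.commutator_mem_commutator (Subgroup.mem_top _) (Subgroup.mem_top _)
  rw [← range_incl]
  rintro _ ⟨c, rfl⟩
  have hc : c = (Multiplicative.ofAdd (1 : ZMod n)) ^ (Multiplicative.toAdd c).val := by
    rw [← ofAdd_nsmul, nsmul_one, ZMod.natCast_zmod_val]
    rfl
  rw [hc, map_pow]
  exact Subgroup.pow_mem _ hz _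

end BilCover

/-- A stem extension of `G` with kernel `ZMod n`, from two homomorphisms to `ZMod n` with
"determinant" one on a pair of commuting elements. -/
theorem exists_stem_cover {G : Type u} [Group G] [Finite G] (n : ℕ) [NeZero n]
    (α β : G →* Multiplicative (ZMod n)) (g g' : G) (hcomm : g * g' = g' * g)
    (hdet : Multiplicative.toAdd (α g) * Multiplicative.toAdd (β g') -
      Multiplicative.toAdd (α g') * Multiplicative.toAdd (β g) = 1) :
    ∃ (Γ : Type u) (_ : Group Γ) (_ : Finite Γ) (σ : Γ →* G),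
      Cfsg.IsStemExtension σ ∧ Nonempty (σ.ker ≃* Multiplicative (ZMod n)) := by
  refine ⟨BilCover n α β, inferInstance, BilCover.finite, BilCover.proj n α β,
    ⟨BilCover.proj_surjective, BilCover.ker_proj_le_center,
      BilCover.ker_proj_le_commutator g g' hcomm hdet⟩, ?_⟩
  exact ⟨((MonoidHom.ofInjective BilCover.incl_injective).trans
    (MulEquiv.subgroupCongr BilCover.range_incl)).symm⟩

/-- In a stem extension `σ : Γ →* G` of an abelian group generated by `σ x` and `σ y`, the
kernel is the cyclic group generated by `c = x⁻¹ y⁻¹ x y`, and `c ^ n = 1` whenever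
`y ^ n` lies in the kernel. -/
theorem stem_ker_eq_zpowers_of_abelian {Γ : Type u} {G : Type v} [Group Γ] [CommGroup G]
    (σ : Γ →* G) (hst : Cfsg.IsStemExtension σ) (x y : Γ)
    (hgen : Subgroup.closure ({σ x, σ y} : Set G) = ⊤) :
    σ.ker = Subgroup.zpowers (x⁻¹ * y⁻¹ * x * y) ∧
      ∀ n : ℕ, y ^ n ∈ σ.ker → (x⁻¹ * y⁻¹ * x * y) ^ n = 1 := by
  obtain ⟨hsurj, hcen, hcomm⟩ := hst
  have hc : x⁻¹ * y⁻¹ * x * y ∈ σ.ker := by
    rw [MonoidHom.mem_ker, map_mul, map_mul, map_mul, map_inv, map_inv]
    rw [mul_right_comm (σ x)⁻¹, inv_mul_cancel, one_mul, inv_mul_cancel]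
  have hcz : ∀ g : Γ, g * (x⁻¹ * y⁻¹ * x * y) = (x⁻¹ * y⁻¹ * x * y) * g :=
    Subgroup.mem_center_iff.mp (hcen hc)
  have hxy : x * y = y * x * (x⁻¹ * y⁻¹ * x * y) := by group
  have hcenk : ∀ z ∈ σ.ker, ∀ g : Γ, g * z = z * g := fun z hz =>
    Subgroup.mem_center_iff.mp (hcen hz)
  have hWn : (Subgroup.zpowers (x⁻¹ * y⁻¹ * x * y)).Normal := by
    constructor
    intro w hw g
    obtain ⟨k, rfl⟩ := hw
    have h1 : g * (x⁻¹ * y⁻¹ * x * y) ^ k * g⁻¹ = (g * (x⁻¹ * y⁻¹ * x * y) * g⁻¹) ^ k :=
      conj_zpow.symm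
    have h2 : g * (x⁻¹ * y⁻¹ * x * y) * g⁻¹ = x⁻¹ * y⁻¹ * x * y := by
      rw [hcz g, mul_inv_cancel_right]
    change g * (x⁻¹ * y⁻¹ * x * y) ^ k * g⁻¹ ∈ _
    rw [h1, h2]
    exact Subgroup.zpow_mem _ (Subgroup.mem_zpowers _) k
  have hgenΓ : Subgroup.closure (insert x (insert y (σ.ker : Set Γ))) = ⊤ := by
    apply eq_top_of_ker_le_of_map_eq_top σ
    · intro k hk
      exact Subgroup.subset_closure (Set.mem_insert_of_mem _ (Set.mem_insert_of_mem _ hk))
    · rw [eq_top_iff, ← hgen, Subgroup.closure_le]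
      intro g hg
      rcases hg with rfl | hg
      · exact ⟨x, Subgroup.subset_closure (Set.mem_insert _ _), rfl⟩
      · rw [Set.mem_singleton_iff] at hg
        subst hg
        exact ⟨y, Subgroup.subset_closure (Set.mem_insert_of_mem _ (Set.mem_insert _ _)), rfl⟩
  have hle : commutator Γ ≤ Subgroup.zpowers (x⁻¹ * y⁻¹ * x * y) := by
    refine commutator_le_of_gen_comm _ _ hgenΓ ?_
    have hcomm_of : ∀ a b : Γ, a * b = b * a → (a * b)⁻¹ * (b * a) ∈
        Subgroup.zpowers (x⁻¹ * y⁻¹ * x * y) := by
      intro a b hab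
      rw [hab, inv_mul_cancel]
      exact Subgroup.one_mem _
    intro s hs t ht
    rcases hs with rfl | rfl | hsZ
    · rcases ht with rfl | rfl | htZ
      · exact hcomm_of _ _ rfl
      · have : (s * t)⁻¹ * (t * s) = (s⁻¹ * t⁻¹ * s * t)⁻¹ := by group
        rw [this]
        exact Subgroup.inv_mem _ (Subgroup.mem_zpowers _)
      · exact hcomm_of _ _ (hcenk t htZ s)
    · rcases ht with rfl | rfl | htZ
      · have : (s * t)⁻¹ * (t * s) = t⁻¹ * s⁻¹ * t * s := by group
        rw [this]
        exact Subgroup.mem_zpowers _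
      · exact hcomm_of _ _ rfl
      · exact hcomm_of _ _ (hcenk t htZ s)
    · exact hcomm_of _ _ (hcenk s hsZ t).symm
  refine ⟨le_antisymm (hcomm.trans hle) ?_, ?_⟩
  · rw [Subgroup.zpowers_le]
    exact hc
  · intro n hn
    have hyn : ∀ g : Γ, g * y ^ n = y ^ n * g := Subgroup.mem_center_iff.mp (hcen hn)
    have h1 : x⁻¹ * y * x = y * (x⁻¹ * y⁻¹ * x * y)⁻¹ := by group
    have h2 : (x⁻¹ * y * x) ^ n = x⁻¹ * y ^ n * x := by
      have := conj_pow (i := n) (a := x⁻¹) (b := y)
      rw [inv_inv] at this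
      exact this
    have h3 : Commute y (x⁻¹ * y⁻¹ * x * y)⁻¹ := by
      have := hcz y
      exact (Commute.inv_right this)
    have h5 : x⁻¹ * y ^ n * x = y ^ n := by
      rw [mul_assoc, ← hyn x, inv_mul_cancel_left]
    rw [h1, h3.mul_pow, h5] at h2
    have h4 : ((x⁻¹ * y⁻¹ * x * y)⁻¹) ^ n = 1 := by
      have := congrArg (fun a => (y ^ n)⁻¹ * a) h2
      simpa using this
    rw [inv_pow, inv_eq_one] at h4
    exact h4

/-- A homomorphism from `Multiplicative (ZMod n)` onto a group all of whose elements are powers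
of an element `u` with `u ^ n = 1`. -/
theorem exists_surjective_zmod {K : Type*} [Group K] (n : ℕ) (u : K) (hu : u ^ n = 1)
    (hK : ∀ k : K, k ∈ Subgroup.zpowers u) :
    ∃ π : Multiplicative (ZMod n) →* K, Function.Surjective π := by
  have hf : (zmultiplesHom (Additive K) (Additive.ofMul u)) (n : ℤ) = 0 := by
    rw [zmultiplesHom_apply, natCast_zsmul, ← ofMul_pow, hu]
    rfl
  let f : ZMod n →+ Additive K :=
    ZMod.lift n ⟨zmultiplesHom (Additive K) (Additive.ofMul u), hf⟩
  have hfj : ∀ j : ℤ, f (j : ZMod n) = Additive.ofMul (u ^ j) := by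
    intro j
    have := ZMod.lift_coe n (⟨zmultiplesHom (Additive K) (Additive.ofMul u), hf⟩ :
      {f : ℤ →+ Additive K // f (n : ℤ) = 0}) j
    rw [zmultiplesHom_apply] at this
    rw [ofMul_zpow]
    exact this
  refine ⟨AddMonoidHom.toMultiplicativeLeft f, ?_⟩
  intro k
  obtain ⟨j, rfl⟩ := hK k
  exact ⟨Multiplicative.ofAdd (j : ZMod n), hfj j⟩

end Cfsg.Agent.Lib.Helper29
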