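import Mathlib
import Cfsg.Agent.Lib.Helper29.Stem

/-!
The double cover `D_{4n} → D_{2n}` of a dihedral group, a stem extension when `n` is even.
-/

set_option autoImplicit false
open Cfsg
open scoped commutatorElement

namespace Cfsg.Agent.Lib.Helper29

/-- The reduction map `D_{2k} → D_{2m}` for `m ∣ k`. -/
def dihedralCast {m k : ℕ} (h : m ∣ k) : DihedralGroup k →* DihedralGroup m where
  toFun g := match g with
    | DihedralGroup.r i => DihedralGroup.r (ZMod.castHom h (ZMod m) i)
    | DihedralGroup.sr i => DihedralGroup.sr (ZMod.castHom h (ZMod m) i)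
  map_one' := by
    rw [DihedralGroup.one_def]
    simp
  map_mul' := by
    rintro (i | i) (j | j) <;> simp [map_add, map_sub]

theorem dihedralCast_r {m k : ℕ} (h : m ∣ k) (i : ZMod k) :
    dihedralCast h (DihedralGroup.r i) = DihedralGroup.r (ZMod.castHom h (ZMod m) i) := rfl

theorem dihedralCast_sr {m k : ℕ} (h : m ∣ k) (i : ZMod k) :
    dihedralCast h (DihedralGroup.sr i) = DihedralGroup.sr (ZMod.castHom h (ZMod m) i) := rfl

theorem dihedralCast_surjective {m k : ℕ} (h : m ∣ k) :
    Function.Surjective (dihedralCast h) := by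
  have hs : Function.Surjective (ZMod.castHom h (ZMod m)) := ZMod.castHom_surjective h
  rintro (i | i)
  · obtain ⟨j, rfl⟩ := hs i
    exact ⟨DihedralGroup.r j, rfl⟩
  · obtain ⟨j, rfl⟩ := hs i
    exact ⟨DihedralGroup.sr j, rfl⟩

/-- Kernel elements of `D_{2·2n} → D_{2n}` are rotations `r i` with `n ∣ i.val`. -/
theorem mem_ker_dihedralCast {m k : ℕ} [NeZero k] (h : m ∣ k) (g : DihedralGroup k)
    (hg : g ∈ (dihedralCast h).ker) : ∃ i : ZMod k, g = DihedralGroup.r i ∧ m ∣ i.val := by
  rw [MonoidHom.mem_ker] at hg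
  cases g with
  | r i =>
    refine ⟨i, rfl, ?_⟩
    rw [dihedralCast_r, DihedralGroup.one_def] at hg
    have h0 : ZMod.castHom h (ZMod m) i = 0 := by
      injection hg
    rw [ZMod.castHom_apply, ← ZMod.natCast_val, ZMod.natCast_eq_zero_iff] at h0
    exact h0
  | sr i =>
    rw [dihedralCast_sr, DihedralGroup.one_def] at hg
    cases hg

theorem dihedral_double_isStem (n : ℕ) [NeZero n] (hn : Even n) :
    Cfsg.IsStemExtension (dihedralCast (Dvd.intro_left 2 rfl : n ∣ 2 * n)) := by
  refine ⟨dihedralCast_surjective _, ?_, ?_⟩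
  · intro g hg
    obtain ⟨i, rfl, hi⟩ := mem_ker_dihedralCast _ g hg
    have hii : i + i = 0 := by
      obtain ⟨t, ht⟩ := hi
      have h1 : ((i.val + i.val : ℕ) : ZMod (2 * n)) = 0 := by
        rw [ZMod.natCast_eq_zero_iff, ht]
        exact ⟨t, by ring⟩
      have h2 : ((i.val : ℕ) : ZMod (2 * n)) = i := ZMod.natCast_zmod_val i
      rw [Nat.cast_add, h2] at h1
      exact h1
    have hneg : -i = i := by
      rw [neg_eq_iff_add_eq_zero]; exact hii
    rw [Subgroup.mem_center_iff]
    rintro (j | j)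
    · rw [DihedralGroup.r_mul_r, DihedralGroup.r_mul_r, add_comm]
    · rw [DihedralGroup.sr_mul_r, DihedralGroup.r_mul_sr, sub_eq_add_neg, hneg]
  · intro g hg
    obtain ⟨i, rfl, hi⟩ := mem_ker_dihedralCast _ g hg
    obtain ⟨t, ht⟩ := hi
    obtain ⟨c, hc⟩ := hn
    have h2 : ((i.val : ℕ) : ZMod (2 * n)) = i := ZMod.natCast_zmod_val i
    have hi2 : i = ((c * t : ℕ) : ZMod (2 * n)) + ((c * t : ℕ) : ZMod (2 * n)) := by
      rw [← h2, ← Nat.cast_add, ht, hc]
      congr 1
      ring
    have hcomm : ⁅(DihedralGroup.r ((c * t : ℕ) : ZMod (2 * n)) : DihedralGroup (2 * n)),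
        DihedralGroup.sr 0⁆ = DihedralGroup.r i := by
      rw [commutatorElement_def, DihedralGroup.inv_r, DihedralGroup.inv_sr, DihedralGroup.r_mul_sr,
        DihedralGroup.sr_mul_r, DihedralGroup.sr_mul_sr, hi2]
      congr 1
      ring
    rw [← hcomm, commutator_def]
    exact Subgroup.commutator_mem_commutator (Subgroup.mem_top _) (Subgroup.mem_top _)

theorem dihedral_double_card_ker (n : ℕ) [NeZero n] :
    Nat.card (dihedralCast (Dvd.intro_left 2 rfl : n ∣ 2 * n)).ker = 2 := by
  have h1 := Subgroup.card_mul_index (dihedralCast (Dvd.intro_left 2 rfl : n ∣ 2 * n)).ker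
  rw [Subgroup.index_ker, MonoidHom.range_eq_top.mpr (dihedralCast_surjective _),
    Subgroup.card_top, DihedralGroup.nat_card, DihedralGroup.nat_card] at h1
  have hn : 0 < n := Nat.pos_of_ne_zero (NeZero.ne n)
  nlinarith

end Cfsg.Agent.Lib.Helper29
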