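import Mathlib
import Cfsg.Agent.S0023
import Cfsg.Agent.S0035
import Cfsg.Agent.Lib.Helper91.Coprime2

/-!
Herstein's theorem: a finite group with an abelian maximal subgroup has derived length at most 3.
Tools: Frobenius' theorem (S0035) applied to `G / Z(G)`, and the existence of invariant Sylow
subgroups under coprime action (S0023).
-/

set_option autoImplicit false

namespace Cfsg.Agent.Lib.Helper29

open scoped Pointwise

/-- In a finite group, an element conjugating `H` into itself normalizes `H`. -/
theorem mem_normalizer_of_conj_le {G : Type*} [Group G] [Finite G] (H : Subgroup G) (g : G)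
    (h : ∀ x ∈ H, g * x * g⁻¹ ∈ H) : g ∈ Subgroup.normalizer (H : Set G) := by
  have hinj : Function.Injective (fun x : H => (⟨g * x * g⁻¹, h x x.2⟩ : H)) := by
    intro x y hxy
    have h1 : g * (x : G) * g⁻¹ = g * (y : G) * g⁻¹ := congrArg Subtype.val hxy
    apply Subtype.ext
    have h2 := congrArg (fun t => g⁻¹ * t * g) h1
    simpa [mul_assoc] using h2
  have hsurj := Finite.surjective_of_injective hinj
  rw [Subgroup.mem_normalizer_iff]
  intro x
  refine ⟨fun hx => h x hx, fun hx => ?_⟩
  obtain ⟨y, hy⟩ := hsurj ⟨g * x * g⁻¹, hx⟩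
  have h1 : g * (y : G) * g⁻¹ = g * x * g⁻¹ := congrArg Subtype.val hy
  have h2 := congrArg (fun t => g⁻¹ * t * g) h1
  have h3 : (y : G) = x := by simpa [mul_assoc] using h2
  rw [← h3]
  exact y.2

/-- If an element `a` of prime order `p` commutes with no nonidentity element of the normal
subgroup `N`, then `p` does not divide the order of `N`. -/
theorem not_dvd_card_of_fpf {G : Type*} [Group G] [Finite G] (N : Subgroup G) [N.Normal]
    (p : ℕ) [Fact p.Prime] (a : G) (ha : orderOf a = p)
    (hfix : ∀ n ∈ N, a * n = n * a → n = 1) : ¬ p ∣ Nat.card N := by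
  let φ : Subgroup.zpowers a →* MulAut N := MulAut.conjNormal.comp (Subgroup.zpowers a).subtype
  let _ : MulAction (Subgroup.zpowers a) N := MulAction.compHom N φ
  have hp : IsPGroup p (Subgroup.zpowers a) :=
    IsPGroup.of_card (n := 1) (by rw [Nat.card_zpowers, ha, pow_one])
  have h1 := hp.card_modEq_card_fixedPoints N
  have h2 : MulAction.fixedPoints (Subgroup.zpowers a) N = {1} := by
    ext n
    simp only [MulAction.mem_fixedPoints, Set.mem_singleton_iff]
    constructor
    · intro h
      have h3 := h ⟨a, Subgroup.mem_zpowers a⟩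
      have h4 : a * (n : G) * a⁻¹ = n := congrArg Subtype.val h3
      apply Subtype.ext
      refine hfix n n.2 ?_
      have h5 := congrArg (fun t => t * a) h4
      simpa [mul_assoc] using h5
    · rintro rfl g
      exact map_one (φ g)
  rw [h2] at h1
  intro hdvd
  have h3 : Nat.card N ≡ 1 [MOD p] := by
    simpa using h1
  have h4 : (0 : ℕ) ≡ 1 [MOD p] := ((Nat.modEq_zero_iff_dvd.mpr hdvd).symm).trans h3
  have h5 : p ∣ 1 := (Nat.modEq_zero_iff_dvd.mp h4.symm)
  exact (Fact.out : p.Prime).one_lt.ne' (Nat.dvd_one.mp h5)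

/-- If `A` is a maximal subgroup, `N` a subgroup with `N ∩ A = 1` and `|N| |A| = |G|`, then every
nontrivial subgroup of `N` normalized by `A` is `N`. -/
theorem eq_of_normalized_of_coatom {G : Type*} [Group G] [Finite G] (A N X : Subgroup G)
    (hA : IsCoatom A) (hNA : N ⊓ A = ⊥) (hcard : Nat.card N * Nat.card A = Nat.card G)
    (hXN : X ≤ N) (hX : X ≠ ⊥) (hAX : A ≤ Subgroup.normalizer (X : Set G)) : X = N := by
  have h1 : X ⊓ A = ⊥ := le_bot_iff.mp ((inf_le_inf_right A hXN).trans hNA.le)
  have h2 : X ⊔ A = ⊤ := by
    apply hA.2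
    refine lt_of_le_of_ne le_sup_right ?_
    intro h
    have h3 : X ≤ A := by
      rw [h]; exact le_sup_left
    apply hX
    rw [← h1]
    exact (inf_eq_left.mpr h3).symm
  have h3 := Cfsg.Agent.Lib.Helper91.card_sup_mul_card_inf_of_le_normalizer X A hAX
  rw [h2, h1, Subgroup.card_top, Subgroup.card_bot, mul_one] at h3
  have hApos : 0 < Nat.card A := Nat.card_pos
  have h4 : Nat.card X = Nat.card N := by
    have : Nat.card X * Nat.card A = Nat.card N * Nat.card A := by rw [← h3, hcard]
    exact Nat.eq_of_mul_eq_mul_right hApos this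
  exact Subgroup.eq_of_le_of_card_ge hXN (le_of_eq h4.symm)

/-- A finite group with a maximal subgroup that is abelian and a Frobenius complement is
metabelian. -/
theorem derivedSeries_two_of_frobenius_abelian_coatom {G : Type*} [Group G] [Finite G]
    (A : Subgroup G) (hA : IsCoatom A) [IsMulCommutative A]
    (hF : Cfsg.IsFrobeniusComplement A) : derivedSeries G 2 = ⊥ := by
  obtain ⟨N, -, hNn, hcompl⟩ := Cfsg.Agent.S0035.result A hF
  have hNA : N ⊓ A = ⊥ := hcompl.disjoint.eq_bot
  have hsup : N ⊔ A = ⊤ := hcompl.sup_eq_top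
  have hcard : Nat.card N * Nat.card A = Nat.card G := hcompl.card_mul_card
  have hfpf : ∀ a ∈ A, a ≠ 1 → ∀ n ∈ N, a * n = n * a → n = 1 := by
    intro a ha ha1 n hn hcomm
    by_contra hn1
    have hnA : n ∉ A := by
      intro h
      have : n ∈ N ⊓ A := ⟨hn, h⟩
      rw [hNA] at this
      exact hn1 (Subgroup.mem_bot.mp this)
    have h1 := hF.2.2 n hnA
    have h2 : a ∈ A ⊓ (MulAut.conj n • A) := by
      refine Subgroup.mem_inf.mpr ⟨ha, ?_⟩
      rw [Subgroup.mem_pointwise_smul_iff_inv_smul_mem]
      have : (MulAut.conj n)⁻¹ • a = n⁻¹ * a * n := by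
        rw [← map_inv, MulAut.smul_def, MulAut.conj_apply, inv_inv]
      rw [this, mul_assoc, hcomm, inv_mul_cancel_left]
      exact ha
    rw [h1] at h2
    exact ha1 (Subgroup.mem_bot.mp h2)
  have hcop : (Nat.card A).Coprime (Nat.card N) := by
    by_contra h
    obtain ⟨p, hp, hpA, hpN⟩ := Nat.Prime.not_coprime_iff_dvd.mp h
    have := Fact.mk hp
    obtain ⟨a, ha⟩ := exists_prime_orderOf_dvd_card' p hpA
    refine not_dvd_card_of_fpf N p (a : G) (by rw [Subgroup.orderOf_coe]; exact ha)
      (hfpf a a.2 ?_) hpN
    intro h1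
    have : orderOf (a : G) = 1 := by rw [h1, orderOf_one]
    rw [Subgroup.orderOf_coe, ha] at this
    exact hp.one_lt.ne' this
  have hNbot : N ≠ ⊥ := by
    intro h
    rw [h, Subgroup.card_bot, one_mul] at hcard
    exact hA.1 (Subgroup.eq_top_of_card_eq A hcard)
  have hNcard : Nat.card N ≠ 1 := fun h => hNbot (Subgroup.card_eq_one.mp h)
  obtain ⟨p, hp, hpN⟩ := Nat.exists_prime_and_dvd hNcard
  have := Fact.mk hp
  have hAN : A ≤ Subgroup.normalizer (N : Set G) := by
    rw [Subgroup.normalizer_eq_top_iff.mpr hNn]; exact le_top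
  have hAsolv : Group.IsSolvable A :=
    Group.isSolvable_of_comm (fun a b => (inferInstance : IsMulCommutative A).is_comm.comm a b)
  obtain ⟨P, hP⟩ := Cfsg.Agent.S0023.result A N hAN hcop (Or.inl hAsolv) p
  have hPne : (P : Subgroup N).map N.subtype ≠ ⊥ := by
    intro h
    rw [Subgroup.map_eq_bot_iff_of_injective _ N.subtype_injective] at h
    exact P.ne_bot_of_dvd_card hpN h
  have hPN : (P : Subgroup N).map N.subtype = N :=
    eq_of_normalized_of_coatom A N _ hA hNA hcard (Subgroup.map_subtype_le _) hPne hP
  have hNp : IsPGroup p N := by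
    intro g
    have hg : (g : G) ∈ (P : Subgroup N).map N.subtype := by rw [hPN]; exact g.2
    obtain ⟨g', hg', hgg'⟩ := hg
    have : g' = g := Subtype.ext hgg'
    subst this
    obtain ⟨k, hk⟩ := P.isPGroup' ⟨g', hg'⟩
    exact ⟨k, congrArg Subtype.val hk⟩
  have : Nontrivial N := (Subgroup.nontrivial_iff_ne_bot N).mpr hNbot
  have hcen : Nontrivial (Subgroup.center N) := hNp.center_nontrivial
  have hCn : ((Subgroup.center N).map N.subtype).Normal := inferInstance
  have hAC : A ≤ Subgroup.normalizer (((Subgroup.center N).map N.subtype : Subgroup G) : Set G) := by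
    rw [Subgroup.normalizer_eq_top_iff.mpr hCn]; exact le_top
  have hCne : (Subgroup.center N).map N.subtype ≠ ⊥ := by
    intro h
    rw [Subgroup.map_eq_bot_iff_of_injective _ N.subtype_injective] at h
    exact (Subgroup.nontrivial_iff_ne_bot _).mp hcen h
  have hCN : (Subgroup.center N).map N.subtype = N :=
    eq_of_normalized_of_coatom A N _ hA hNA hcard (Subgroup.map_subtype_le _) hCne hAC
  have hNcomm : ∀ x ∈ N, ∀ y ∈ N, x * y = y * x := by
    intro x hx y hy
    have hx' : x ∈ (Subgroup.center N).map N.subtype := by rw [hCN]; exact hx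
    obtain ⟨x', hx'c, rfl⟩ := hx'
    have := Subgroup.mem_center_iff.mp hx'c ⟨y, hy⟩
    have h2 := congrArg Subtype.val this
    exact h2.symm
  have hcomm : commutator G ≤ N :=
    hNn.commutator_le_of_self_sup_commutative_eq_top hsup inferInstance
  have hD1 : derivedSeries G 1 ≤ N := by
    rw [derivedSeries_one]; exact hcomm
  rw [derivedSeries_succ, eq_bot_iff]
  refine (Subgroup.commutator_mono hD1 hD1).trans ?_
  rw [Subgroup.commutator_le]
  intro x hx y hy
  rw [Subgroup.mem_bot, commutatorElement_def, hNcomm x hx y hy, mul_inv_cancel_right,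
    mul_inv_cancel]

/-- **Herstein's theorem**: a finite group with an abelian maximal subgroup has trivial third
derived subgroup. -/
theorem derivedSeries_three_of_abelian_coatom {G : Type*} [Group G] [Finite G] (A : Subgroup G)
    (hA : IsCoatom A) [hAc : IsMulCommutative A] : derivedSeries G 3 = ⊥ := by
  have hAcomm : ∀ x ∈ A, ∀ y ∈ A, x * y = y * x := by
    intro x hx y hy
    exact congrArg Subtype.val (hAc.is_comm.comm ⟨x, hx⟩ ⟨y, hy⟩)
  by_cases hn : A.Normal
  · -- `G / A` is cyclic
    obtain ⟨g, hg⟩ : ∃ g, g ∉ A := by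
      by_contra h
      push Not at h
      exact hA.1 (eq_top_iff.mpr (fun x _ => h x))
    have hsup : A ⊔ Subgroup.zpowers g = ⊤ := by
      apply hA.2
      refine lt_of_le_of_ne le_sup_left ?_
      intro h
      apply hg
      rw [h]
      exact Subgroup.mem_sup_right (Subgroup.mem_zpowers g)
    have h1 : commutator G ≤ A :=
      hn.commutator_le_of_self_sup_commutative_eq_top hsup inferInstance
    have hD1 : derivedSeries G 1 ≤ A := by
      rw [derivedSeries_one]; exact h1
    have hD2 : derivedSeries G 2 = ⊥ := by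
      rw [derivedSeries_succ, eq_bot_iff]
      refine (Subgroup.commutator_mono hD1 hD1).trans ?_
      rw [Subgroup.commutator_le]
      intro x hx y hy
      rw [Subgroup.mem_bot, commutatorElement_def, hAcomm x hx y hy, mul_inv_cancel_right,
        mul_inv_cancel]
    rw [derivedSeries_succ, hD2, eq_bot_iff, Subgroup.commutator_le]
    intro x hx y hy
    rw [Subgroup.mem_bot] at hx hy
    rw [hx, hy, Subgroup.mem_bot, commutatorElement_def]
    group
  · -- `A` is self-normalizing and `G / Z(G)` is a Frobenius group with complement `A / Z(G)`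
    have hnorm : Subgroup.normalizer (A : Set G) = A := by
      by_contra h
      have h1 : A < Subgroup.normalizer (A : Set G) :=
        lt_of_le_of_ne Subgroup.le_normalizer (fun h2 => h h2.symm)
      exact hn (Subgroup.normalizer_eq_top_iff.mp (hA.2 _ h1))
    have hZA : Subgroup.center G ≤ A := by
      by_contra h
      have h1 : A < A ⊔ Subgroup.center G := by
        refine lt_of_le_of_ne le_sup_left ?_
        intro h2
        apply h
        rw [h2]
        exact le_sup_right
      have h2 := hA.2 _ h1
      have h3 : A ⊔ Subgroup.center G ≤ Subgroup.normalizer (A : Set G) :=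
        sup_le Subgroup.le_normalizer (Subgroup.center_le_normalizer _)
      rw [h2, hnorm] at h3
      exact hA.1 (eq_top_iff.mpr h3)
    -- intersections of `A` with its conjugates are central
    have hint : ∀ g : G, g ∉ A → ∀ a ∈ A, g⁻¹ * a * g ∈ A → a ∈ Subgroup.center G := by
      intro g hg a ha hga
      by_contra hac
      have h1 : Subgroup.centralizer ({a} : Set G) ≠ ⊤ := by
        intro h
        apply hac
        rw [Subgroup.mem_center_iff]
        intro x
        have hx : x ∈ Subgroup.centralizer ({a} : Set G) := by rw [h]; trivial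
        exact (Subgroup.mem_centralizer_iff.mp hx a rfl).symm
      have h2 : A ≤ Subgroup.centralizer ({a} : Set G) := by
        intro x hx
        rw [Subgroup.mem_centralizer_iff]
        intro y hy
        rw [Set.mem_singleton_iff] at hy
        subst hy
        exact hAcomm y ha x hx
      have h3 : Subgroup.centralizer ({a} : Set G) = A := by
        by_contra h
        exact h1 (hA.2 _ (lt_of_le_of_ne h2 (fun h4 => h h4.symm)))
      apply hg
      rw [← hnorm]
      apply mem_normalizer_of_conj_le
      intro x hx
      rw [← h3, Subgroup.mem_centralizer_iff]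
      intro y hy
      rw [Set.mem_singleton_iff] at hy
      subst hy
      have h4 := hAcomm (g⁻¹ * y * g) hga x hx
      calc y * (g * x * g⁻¹) = g * ((g⁻¹ * y * g) * x) * g⁻¹ := by group
        _ = g * (x * (g⁻¹ * y * g)) * g⁻¹ := by rw [h4]
        _ = g * x * g⁻¹ * y := by group
    -- pass to the quotient by the centre
    have hmk : Function.Surjective (QuotientGroup.mk' (Subgroup.center G)) :=
      QuotientGroup.mk'_surjective _
    have hcomap : (A.map (QuotientGroup.mk' (Subgroup.center G))).comap
        (QuotientGroup.mk' (Subgroup.center G)) = A := by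
      rw [Subgroup.comap_map_eq, QuotientGroup.ker_mk', sup_eq_left.mpr hZA]
    have hAbar_top : A.map (QuotientGroup.mk' (Subgroup.center G)) ≠ ⊤ := by
      intro h
      rw [h, Subgroup.comap_top] at hcomap
      exact hA.1 hcomap.symm
    have hAbar_coatom : IsCoatom (A.map (QuotientGroup.mk' (Subgroup.center G))) := by
      refine ⟨hAbar_top, ?_⟩
      intro H hH
      have h1 : A ≤ H.comap (QuotientGroup.mk' (Subgroup.center G)) := by
        rw [← hcomap]
        exact Subgroup.comap_mono hH.le
      have h2 : H.comap (QuotientGroup.mk' (Subgroup.center G)) ≠ A := by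
        intro h
        have h3 := congrArg (Subgroup.map (QuotientGroup.mk' (Subgroup.center G))) h
        rw [Subgroup.map_comap_eq_self_of_surjective hmk] at h3
        exact hH.ne h3.symm
      have h3 := hA.2 _ (lt_of_le_of_ne h1 (fun h => h2 h.symm))
      have h4 := congrArg (Subgroup.map (QuotientGroup.mk' (Subgroup.center G))) h3
      rw [Subgroup.map_comap_eq_self_of_surjective hmk, Subgroup.map_top_of_surjective _ hmk] at h4
      exact h4
    have hAbar_bot : A.map (QuotientGroup.mk' (Subgroup.center G)) ≠ ⊥ := by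
      intro h
      rw [Subgroup.map_eq_bot_iff, QuotientGroup.ker_mk'] at h
      have h1 : A = Subgroup.center G := le_antisymm h hZA
      apply hn
      rw [h1]
      infer_instance
    have hF : Cfsg.IsFrobeniusComplement (A.map (QuotientGroup.mk' (Subgroup.center G))) := by
      refine ⟨hAbar_bot, hAbar_top, ?_⟩
      intro gbar hgbar
      obtain ⟨g, rfl⟩ := hmk gbar
      have hg : g ∉ A := fun h => hgbar (Subgroup.mem_map_of_mem _ h)
      rw [eq_bot_iff]
      intro xbar hx
      obtain ⟨hx1, hx2⟩ := Subgroup.mem_inf.mp hx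
      obtain ⟨a, ha, rfl⟩ := hx1
      rw [Subgroup.mem_pointwise_smul_iff_inv_smul_mem] at hx2
      have h1 : (MulAut.conj ((QuotientGroup.mk' (Subgroup.center G)) g))⁻¹ •
          (QuotientGroup.mk' (Subgroup.center G)) a =
          (QuotientGroup.mk' (Subgroup.center G)) (g⁻¹ * a * g) := by
        rw [← map_inv, MulAut.smul_def, MulAut.conj_apply, inv_inv, map_mul, map_mul, map_inv]
      rw [h1] at hx2
      have h2 : g⁻¹ * a * g ∈ (A.map (QuotientGroup.mk' (Subgroup.center G))).comap
          (QuotientGroup.mk' (Subgroup.center G)) := hx2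
      rw [hcomap] at h2
      have h3 := hint g hg a ha h2
      rw [Subgroup.mem_bot]
      exact (QuotientGroup.eq_one_iff a).mpr h3
    have hD2 := derivedSeries_two_of_frobenius_abelian_coatom
      (A.map (QuotientGroup.mk' (Subgroup.center G))) hAbar_coatom hF
    have h5 := map_derivedSeries_eq hmk 2
    rw [hD2, Subgroup.map_eq_bot_iff, QuotientGroup.ker_mk'] at h5
    rw [derivedSeries_succ, Subgroup.commutator_eq_bot_iff_le_centralizer]
    exact h5.trans (Subgroup.center_le_centralizer _)

end Cfsg.Agent.Lib.Helper29
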