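import Mathlib

/-!
# Helper29: groups acted on by `S₃` with a fixed-point-free element of order 3

Main result `exp_two_of_S3`: if `N` is a normal subgroup of a finite group `X`, `y, t ∈ X` with
`y^3 = 1`, `t^2 = 1`, `t y t⁻¹ = y⁻¹`, `y` fixed-point-free on `N`, and `(t n)^4 = 1`, `n^4 = 1`
for all `n ∈ N`, then `n^2 = 1` for all `n ∈ N`.
-/

set_option autoImplicit false

namespace Cfsg.Agent.Lib.Helper29.Ord1234

universe u

section basic
variable {X : Type u} [Group X]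

theorem inv_eq_self_of_sq {a : X} (ha : a ^ 2 = 1) : a⁻¹ = a := by
  rw [inv_eq_iff_mul_eq_one, ← sq]; exact ha

/-- involutions whose product is an involution commute -/
theorem comm_of_sq {a b : X} (ha : a ^ 2 = 1) (hb : b ^ 2 = 1) (hab : (a * b) ^ 2 = 1) :
    a * b = b * a := by
  have h1 : (a * b)⁻¹ = a * b := inv_eq_self_of_sq hab
  rw [mul_inv_rev, inv_eq_self_of_sq ha, inv_eq_self_of_sq hb] at h1
  exact h1.symm

theorem fpf_key (N : Subgroup X) (y : X) (hfpf : ∀ n ∈ N, y * n * y⁻¹ = n → n = 1)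
    (a b : X) (ha : a ∈ N) (hb : b ∈ N)
    (hab : a⁻¹ * (y * a * y⁻¹) = b⁻¹ * (y * b * y⁻¹)) : a = b := by
  have h2 : y * a * y⁻¹ = a * (b⁻¹ * (y * b * y⁻¹)) := by rw [← hab]; group
  have h1 : y * (b * a⁻¹) * y⁻¹ = b * a⁻¹ := by
    have : y * (b * a⁻¹) * y⁻¹ = (y * b * y⁻¹) * (y * a * y⁻¹)⁻¹ := by group
    rw [this, h2]; group
  have h3 := hfpf _ (N.mul_mem hb (N.inv_mem ha)) h1
  exact (mul_inv_eq_one.1 h3).symm

/-- fixed points lift through invariant subgroups (for a fixed-point-free conjugation) -/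
theorem fpf_lift [Finite X] (N E : Subgroup X) (y : X) (hEN : E ≤ N)
    (hE : ∀ e ∈ E, y * e * y⁻¹ ∈ E)
    (hfpf : ∀ n ∈ N, y * n * y⁻¹ = n → n = 1)
    (n : X) (hn : n ∈ N) (h : n⁻¹ * (y * n * y⁻¹) ∈ E) : n ∈ E := by
  let f : E → E := fun e => ⟨(e : X)⁻¹ * (y * e * y⁻¹), E.mul_mem (E.inv_mem e.2) (hE e e.2)⟩
  have hinj : Function.Injective f := by
    intro a b hab
    have h1 : (a : X)⁻¹ * (y * a * y⁻¹) = (b : X)⁻¹ * (y * b * y⁻¹) := congrArg Subtype.val hab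
    exact Subtype.ext (fpf_key N y hfpf a b (hEN a.2) (hEN b.2) h1)
  obtain ⟨e, he⟩ := (Finite.injective_iff_surjective.1 hinj) ⟨_, h⟩
  have h1 : (e : X)⁻¹ * (y * e * y⁻¹) = n⁻¹ * (y * n * y⁻¹) := congrArg Subtype.val he
  have h2 : (e : X) = n := fpf_key N y hfpf e n (hEN e.2) hn h1
  rw [← h2]; exact e.2

/-- `n · n^y · n^{y²} = 1` for a fixed-point-free conjugation of order 3 -/
theorem fpf_prod [Finite X] (N : Subgroup X) (y : X) (hy : y ^ 3 = 1)
    (hN : ∀ n ∈ N, y * n * y⁻¹ ∈ N)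
    (hfpf : ∀ n ∈ N, y * n * y⁻¹ = n → n = 1) (n : X) (hn : n ∈ N) :
    n * (y * n * y⁻¹) * (y * (y * n * y⁻¹) * y⁻¹) = 1 := by
  let f : N → N := fun e => ⟨(e : X)⁻¹ * (y * e * y⁻¹), N.mul_mem (N.inv_mem e.2) (hN e e.2)⟩
  have hinj : Function.Injective f := by
    intro a b hab
    have h1 : (a : X)⁻¹ * (y * a * y⁻¹) = (b : X)⁻¹ * (y * b * y⁻¹) := congrArg Subtype.val hab
    exact Subtype.ext (fpf_key N y hfpf a b a.2 b.2 h1)
  obtain ⟨a, ha⟩ := (Finite.injective_iff_surjective.1 hinj) ⟨n, hn⟩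
  have ha' : (a : X)⁻¹ * (y * a * y⁻¹) = n := congrArg Subtype.val ha
  rw [← ha']
  have hy3 : y * y * y = 1 := by rw [← hy, pow_succ, pow_two]
  have e : (a : X)⁻¹ * (y * a * y⁻¹) * (y * ((a : X)⁻¹ * (y * a * y⁻¹)) * y⁻¹) *
      (y * (y * ((a : X)⁻¹ * (y * a * y⁻¹)) * y⁻¹) * y⁻¹) =
      (a : X)⁻¹ * (y * y * y) * a * (y * y * y)⁻¹ := by
    simp only [mul_assoc, mul_inv_rev, inv_mul_cancel_left, mul_inv_cancel_left]
  rw [e, hy3]; simp

theorem fpf_prod' [Finite X] (N : Subgroup X) (y : X) (hy : y ^ 3 = 1)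
    (hN : ∀ n ∈ N, y * n * y⁻¹ ∈ N)
    (hfpf : ∀ n ∈ N, y * n * y⁻¹ = n → n = 1) (n : X) (hn : n ∈ N) :
    (y * (y * n * y⁻¹) * y⁻¹) * (y * n * y⁻¹) * n = 1 := by
  have h := fpf_prod N y hy hN hfpf n⁻¹ (N.inv_mem hn)
  have e : (y * (y * n * y⁻¹) * y⁻¹) * (y * n * y⁻¹) * n =
      (n⁻¹ * (y * n⁻¹ * y⁻¹) * (y * (y * n⁻¹ * y⁻¹) * y⁻¹))⁻¹ := by
    simp only [mul_assoc, mul_inv_rev, inv_inv]
  rw [e, h, inv_one]

theorem inv_conj_eq (y : X) (hy : y ^ 3 = 1) (a : X) :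
    y⁻¹ * a * y = y * (y * a * y⁻¹) * y⁻¹ := by
  have h : y⁻¹ = y * y := by
    rw [inv_eq_iff_mul_eq_one, ← hy, pow_succ, pow_two]; simp only [mul_assoc]
  calc y⁻¹ * a * y = y⁻¹ * a * (y⁻¹)⁻¹ := by group
    _ = (y * y) * a * (y * y)⁻¹ := by rw [h]
    _ = y * (y * a * y⁻¹) * y⁻¹ := by simp only [mul_assoc, mul_inv_rev]

end basic

section main

theorem exp_two_aux : ∀ (k : ℕ) (X : Type u) [Group X] [Finite X] (N : Subgroup X) [N.Normal]
    (y t : X), Nat.card X = k → y ^ 3 = 1 → t ^ 2 = 1 → t * y * t⁻¹ = y⁻¹ →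
    (∀ n ∈ N, y * n * y⁻¹ = n → n = 1) →
    (∀ n ∈ N, (t * n) ^ 4 = 1) →
    (∀ n ∈ N, n ^ 4 = 1) →
    ∀ n ∈ N, n ^ 2 = 1 := by
  intro k
  induction k using Nat.strong_induction_on with
  | _ k ih =>
  intro X _ _ N hNn y t hk hy ht hty hfpf ht4 hN4
  by_cases hNbot : N = ⊥
  · intro n hn
    rw [hNbot, Subgroup.mem_bot] at hn
    rw [hn, one_pow]
  have htinv : t⁻¹ = t := inv_eq_self_of_sq ht
  have hconjN : ∀ (g : X) (n : X), n ∈ N → g * n * g⁻¹ ∈ N := fun g n hn => hNn.conj_mem n hn g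
  have hconjN' : ∀ (g : X) (n : X), n ∈ N → g⁻¹ * n * g ∈ N := by
    intro g n hn
    have := hNn.conj_mem n hn g⁻¹
    rwa [inv_inv] at this
  have F1 : ∀ n ∈ N, n * (y * n * y⁻¹) * (y * (y * n * y⁻¹) * y⁻¹) = 1 :=
    fpf_prod N y hy (hconjN y) hfpf
  have F2 : ∀ n ∈ N, (y * (y * n * y⁻¹) * y⁻¹) * (y * n * y⁻¹) * n = 1 :=
    fpf_prod' N y hy (hconjN y) hfpf
  -- the centre of N, as a subgroup of X
  obtain ⟨Z, hZdef⟩ : ∃ Z : Subgroup X, Z = Subgroup.centralizer (N : Set X) ⊓ N := ⟨_, rfl⟩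
  have hZn : Z.Normal := by rw [hZdef]; infer_instance
  have hZN : Z ≤ N := by rw [hZdef]; exact inf_le_right
  have hZc : ∀ z ∈ Z, ∀ n ∈ N, n * z = z * n := by
    intro z hz n hn
    rw [hZdef] at hz
    exact Subgroup.mem_centralizer_iff.1 hz.1 n hn
  have hNp : IsPGroup 2 N := by
    intro g
    refine ⟨2, Subtype.ext ?_⟩
    have := hN4 g g.2
    simpa using this
  have : Nontrivial N := (Subgroup.nontrivial_iff_ne_bot N).2 hNbot
  have : Fact (Nat.Prime 2) := ⟨Nat.prime_two⟩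
  have := hNp.center_nontrivial
  obtain ⟨z0, hz0⟩ := exists_ne (1 : Subgroup.center N)
  have hz0Z : ((z0 : N) : X) ∈ Z := by
    rw [hZdef]
    refine ⟨Subgroup.mem_centralizer_iff.2 ?_, (z0 : N).2⟩
    intro n hn
    have := Subgroup.mem_center_iff.1 z0.2 ⟨n, hn⟩
    exact congrArg Subtype.val this
  have hZbot : Z ≠ ⊥ := by
    intro h
    rw [h, Subgroup.mem_bot] at hz0Z
    exact hz0 (Subtype.ext (Subtype.ext hz0Z))
  have hcard : Nat.card (X ⧸ Z) < k := by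
    have h1 := Subgroup.card_eq_card_quotient_mul_card_subgroup Z
    have h2 : 1 < Nat.card Z := (Subgroup.one_lt_card_iff_ne_bot Z).2 hZbot
    have h3 : 0 < Nat.card (X ⧸ Z) := Nat.card_pos
    rw [← hk, h1]; nlinarith
  have hyt : t * (y * t * y⁻¹) = y := by
    have e : t * (y * t * y⁻¹) = (t * y * t⁻¹) * t ^ 2 * y⁻¹ := by
      rw [pow_two]; simp only [mul_assoc, inv_mul_cancel_left]
    rw [e, hty, ht, mul_one]
    have hy3 : y * y * y = 1 := by rw [← hy, pow_succ, pow_two]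
    calc y⁻¹ * y⁻¹ = y⁻¹ * y⁻¹ * (y * y * y) := by rw [hy3, mul_one]
      _ = y := by simp only [mul_assoc, inv_mul_cancel_left]
  have hZt : ∀ v ∈ Z, t * v ^ 2 * t⁻¹ = v ^ 2 := by
    intro v hv
    have hvN : v ∈ N := hZN hv
    have hv' : t * v * t⁻¹ ∈ Z := hZn.conj_mem v hv t
    have hc : Commute (t * v * t⁻¹) v := hZc v hv _ (hZN hv')
    have h4 := ht4 v hvN
    have e1 : (t * v) ^ 4 = ((t * v * t⁻¹) * v) ^ 2 := by
      rw [htinv]
      simp only [pow_succ, pow_zero, one_mul, mul_assoc]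
    have e2 : ((t * v * t⁻¹) * v) ^ 2 = (t * v * t⁻¹) ^ 2 * v ^ 2 := hc.mul_pow 2
    have e3 : (t * v * t⁻¹) ^ 2 = t * v ^ 2 * t⁻¹ := by
      rw [pow_two, pow_two]; simp only [mul_assoc, inv_mul_cancel_left]
    rw [e1, e2, e3] at h4
    have h5 : v ^ 2 * v ^ 2 = 1 := by rw [← pow_add]; exact hN4 v hvN
    rw [eq_inv_of_mul_eq_one_left h4]
    exact inv_eq_of_mul_eq_one_left h5
  have hZ2 : ∀ v ∈ Z, v ^ 2 = 1 := by
    intro v hv
    have hvN : v ∈ N := hZN hv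
    have hc1 : Commute t (v ^ 2) := mul_inv_eq_iff_eq_mul.1 (hZt v hv)
    have hv1 : y⁻¹ * v * y ∈ Z := by
      have := hZn.conj_mem v hv y⁻¹
      rwa [inv_inv] at this
    have hc2 : Commute t ((y⁻¹ * v * y) ^ 2) := mul_inv_eq_iff_eq_mul.1 (hZt _ hv1)
    have hc3 : Commute (y * t * y⁻¹) (y * (y⁻¹ * v * y) ^ 2 * y⁻¹) := (Commute.conj_iff y).2 hc2
    have e : y * (y⁻¹ * v * y) ^ 2 * y⁻¹ = v ^ 2 := by
      rw [pow_two, pow_two]
      simp only [mul_assoc, mul_inv_cancel_left, mul_inv_cancel, mul_one]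
    rw [e] at hc3
    have hc4 : Commute (t * (y * t * y⁻¹)) (v ^ 2) := hc1.mul_left hc3
    rw [hyt] at hc4
    exact hfpf _ (N.pow_mem hvN 2) (mul_inv_eq_iff_eq_mul.2 hc4)
  have hsq : ∀ n ∈ N, n ^ 2 ∈ Z := by
    have hπ : ∀ g : X, QuotientGroup.mk' Z g = 1 ↔ g ∈ Z := fun g => QuotientGroup.eq_one_iff g
    have : (N.map (QuotientGroup.mk' Z)).Normal :=
      Subgroup.Normal.map hNn (QuotientGroup.mk' Z) (QuotientGroup.mk'_surjective Z)
    have key := ih (Nat.card (X ⧸ Z)) hcard (X ⧸ Z) (N.map (QuotientGroup.mk' Z))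
      (QuotientGroup.mk' Z y) (QuotientGroup.mk' Z t) rfl
      (by rw [← map_pow, hy, map_one]) (by rw [← map_pow, ht, map_one])
      (by rw [← map_inv, ← map_mul, ← map_mul, hty, map_inv])
      (by
        rintro _ ⟨n, hn, rfl⟩ h
        rw [← map_inv, ← map_mul, ← map_mul] at h
        have h1 : n⁻¹ * (y * n * y⁻¹) ∈ Z := (QuotientGroup.eq (s := Z)).1 h.symm
        have h2 := fpf_lift N Z y hZN (fun e he => hZn.conj_mem e he y) hfpf n hn h1
        exact (hπ n).2 h2)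
      (by
        rintro _ ⟨n, hn, rfl⟩
        rw [← map_mul, ← map_pow, ht4 n hn, map_one])
      (by
        rintro _ ⟨n, hn, rfl⟩
        rw [← map_pow, hN4 n hn, map_one])
    intro n hn
    have := key (QuotientGroup.mk' Z n) (Subgroup.mem_map_of_mem _ hn)
    rw [← map_pow] at this
    exact (hπ _).1 this
  -- elements fixed by `t` modulo `Z`
  obtain ⟨S, hSdef⟩ : ∃ S : Set X, S = {a | a ∈ N ∧ a⁻¹ * (t * a * t⁻¹) ∈ Z} := ⟨_, rfl⟩
  have hSmem : ∀ a, a ∈ S ↔ a ∈ N ∧ a⁻¹ * (t * a * t⁻¹) ∈ Z := by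
    intro a; rw [hSdef]; rfl
  have hS2 : ∀ a ∈ S, a ^ 2 = 1 := by
    intro a haS
    obtain ⟨ha, hz⟩ := (hSmem a).1 haS
    have hm : y * a * y⁻¹ ∈ N := hconjN y a ha
    have h4 := ht4 _ hm
    obtain ⟨z, hzZ, hzdef⟩ : ∃ z ∈ Z, t * a * t⁻¹ = a * z := ⟨_, hz, by rw [mul_inv_cancel_left]⟩
    have hz1 : y⁻¹ * z * y ∈ Z := by
      have := hZn.conj_mem _ hzZ y⁻¹
      rwa [inv_inv] at this
    have hq : y⁻¹ * a * y ∈ N := hconjN' y a ha
    have e1 : t * (y * a * y⁻¹) * t⁻¹ = (t * y * t⁻¹) * (t * a * t⁻¹) * (t * y * t⁻¹)⁻¹ := by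
      simp only [mul_assoc, mul_inv_rev, inv_inv, inv_mul_cancel_left]
    rw [hty, hzdef, inv_inv] at e1
    have e2 : (t * (y * a * y⁻¹)) ^ 2 = (t * (y * a * y⁻¹) * t⁻¹) * t ^ 2 * (y * a * y⁻¹) := by
      rw [pow_two, pow_two]; simp only [mul_assoc, inv_mul_cancel_left]
    rw [e1, ht, mul_one] at e2
    have hF : (y⁻¹ * a * y) * (y * a * y⁻¹) = a⁻¹ := by
      rw [inv_conj_eq y hy a]
      exact eq_inv_of_mul_eq_one_left (F2 a ha)
    have e3 : y⁻¹ * (a * z) * y * (y * a * y⁻¹) =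
        (y⁻¹ * a * y) * (y⁻¹ * z * y) * (y * a * y⁻¹) := by
      simp only [mul_assoc, mul_inv_cancel_left]
    have e4 : (t * (y * a * y⁻¹)) ^ 2 = (y⁻¹ * z * y) * a⁻¹ := by
      rw [e2, e3, hZc _ hz1 _ hq, mul_assoc (y⁻¹ * z * y) (y⁻¹ * a * y) (y * a * y⁻¹), hF]
    have e5 : (t * (y * a * y⁻¹)) ^ 4 = ((t * (y * a * y⁻¹)) ^ 2) ^ 2 := by rw [← pow_mul]
    rw [e5, e4] at h4
    have hc : Commute (y⁻¹ * z * y) a⁻¹ := (hZc _ hz1 _ (N.inv_mem ha)).symm
    rw [hc.mul_pow, hZ2 _ hz1, one_mul, inv_pow, inv_eq_one] at h4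
    exact h4
  have hSmul : ∀ a ∈ S, ∀ b ∈ S, a * b ∈ S := by
    intro a haS b hbS
    obtain ⟨ha, hza⟩ := (hSmem a).1 haS
    obtain ⟨hb, hzb⟩ := (hSmem b).1 hbS
    refine (hSmem _).2 ⟨N.mul_mem ha hb, ?_⟩
    have e : (a * b)⁻¹ * (t * (a * b) * t⁻¹) =
        b⁻¹ * (a⁻¹ * (t * a * t⁻¹)) * (t * b * t⁻¹) := by
      simp only [mul_assoc, mul_inv_rev, inv_mul_cancel_left]
    rw [e, hZc _ hza _ (N.inv_mem hb), mul_assoc (a⁻¹ * (t * a * t⁻¹)) b⁻¹ (t * b * t⁻¹)]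
    exact Z.mul_mem hza hzb
  have hScomm : ∀ a ∈ S, ∀ b ∈ S, a * b = b * a := fun a ha b hb =>
    comm_of_sq (hS2 a ha) (hS2 b hb) (hS2 _ (hSmul a ha b hb))
  have hconj_sq : ∀ (g a : X), a ^ 2 = 1 → (g * a * g⁻¹) ^ 2 = 1 := by
    intro g a ha
    have : (g * a * g⁻¹) ^ 2 = g * a ^ 2 * g⁻¹ := by
      rw [pow_two, pow_two]; simp only [mul_assoc, inv_mul_cancel_left]
    rw [this, ha, mul_one, mul_inv_cancel]
  have hS3 : ∀ a ∈ S, a * (y * a * y⁻¹) = (y * a * y⁻¹) * a := by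
    intro a ha
    have haN : a ∈ N := ((hSmem a).1 ha).1
    refine comm_of_sq (hS2 a ha) (hconj_sq y a (hS2 a ha)) ?_
    have h1 : a * (y * a * y⁻¹) = (y * (y * a * y⁻¹) * y⁻¹)⁻¹ :=
      eq_inv_of_mul_eq_one_left (F1 a haN)
    rw [h1, inv_pow, hconj_sq y _ (hconj_sq y a (hS2 a ha)), inv_one]
  have hS5 : ∀ a ∈ S, ∀ b ∈ S, a * (y * b * y⁻¹) = (y * b * y⁻¹) * a := by
    intro a ha b hb
    have haN : a ∈ N := ((hSmem a).1 ha).1
    have hbN : b ∈ N := ((hSmem b).1 hb).1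
    have ha'N : y * a * y⁻¹ ∈ N := hconjN y a haN
    have hb'N : y * b * y⁻¹ ∈ N := hconjN y b hbN
    have ha2 := hS2 a ha
    have hb2 := hS2 b hb
    have ha'2 := hconj_sq y a ha2
    have hb'2 := hconj_sq y b hb2
    have hF1b := F1 b hbN
    have hab : a * b = b * a := hScomm a ha b hb
    have haa' : a * (y * a * y⁻¹) = (y * a * y⁻¹) * a := hS3 a ha
    have hbb' : b * (y * b * y⁻¹) = (y * b * y⁻¹) * b := hS3 b hb
    have habab : a * b * ((y * a * y⁻¹) * (y * b * y⁻¹)) = (y * a * y⁻¹) * (y * b * y⁻¹) * (a * b) := by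
      have := hS3 (a * b) (hSmul a ha b hb)
      have e : y * (a * b) * y⁻¹ = (y * a * y⁻¹) * (y * b * y⁻¹) := by
        simp only [mul_assoc, inv_mul_cancel_left]
      rw [e] at this
      exact this
    have ha'b' : (y * a * y⁻¹) * (y * b * y⁻¹) = (y * b * y⁻¹) * (y * a * y⁻¹) := by
      have e1 : y * a * y⁻¹ * (y * b * y⁻¹) = y * (a * b) * y⁻¹ := by
        simp only [mul_assoc, inv_mul_cancel_left]
      have e2 : y * b * y⁻¹ * (y * a * y⁻¹) = y * (b * a) * y⁻¹ := by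
        simp only [mul_assoc, inv_mul_cancel_left]
      rw [e1, e2, hab]
    have hu_conj : ∀ c d : X, y * (c * d) ^ 2 * y⁻¹ = ((y * c * y⁻¹) * (y * d * y⁻¹)) ^ 2 := by
      intro c d
      rw [pow_two, pow_two]; simp only [mul_assoc, inv_mul_cancel_left]
    -- abbreviations
    obtain ⟨a', ha'def⟩ : ∃ a', a' = y * a * y⁻¹ := ⟨_, rfl⟩
    obtain ⟨b', hb'def⟩ : ∃ b', b' = y * b * y⁻¹ := ⟨_, rfl⟩
    rw [← hb'def]
    rw [← ha'def] at ha'N ha'2 haa' habab ha'b'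
    rw [← hb'def] at hb'N hb'2 hbb' habab ha'b' hF1b
    have huZ : (a * b') ^ 2 ∈ Z := hsq _ (N.mul_mem haN hb'N)
    have hwZ : (b * a') ^ 2 ∈ Z := hsq _ (N.mul_mem hbN ha'N)
    obtain ⟨u, hu⟩ : ∃ u, u = (a * b') ^ 2 := ⟨_, rfl⟩
    obtain ⟨w, hw⟩ : ∃ w, w = (b * a') ^ 2 := ⟨_, rfl⟩
    rw [← hu] at huZ
    rw [← hw] at hwZ
    have hba' : b * a' = w * (a' * b) := by
      rw [hw, pow_two]
      have : b * a' * (b * a') * (a' * b) = b * a' * (b * (a' * a') * b) := by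
        simp only [mul_assoc]
      rw [this, ← pow_two a', ha'2, mul_one, ← pow_two b, hb2, mul_one]
    have hb'a : b' * a = u * (a * b') := by
      symm
      calc u * (a * b') = a * u * b' := by rw [← mul_assoc, ← hZc u huZ a haN]
        _ = a * (a * b' * (a * b')) * b' := by rw [hu, pow_two]
        _ = (a * a) * b' * a * (b' * b') := by simp only [mul_assoc]
        _ = b' * a := by rw [← pow_two a, ha2, one_mul, ← pow_two b', hb'2, mul_one]
    have hL : a * b * (a' * b') = w * (a * a' * (b * b')) := by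
      calc a * b * (a' * b') = a * (b * a') * b' := by simp only [mul_assoc]
        _ = a * (w * (a' * b)) * b' := by rw [hba']
        _ = (a * w) * (a' * b) * b' := by simp only [mul_assoc]
        _ = (w * a) * (a' * b) * b' := by rw [hZc w hwZ a haN]
        _ = w * (a * a' * (b * b')) := by simp only [mul_assoc]
    have hR : a' * b' * (a * b) = u * (a * a' * (b * b')) := by
      calc a' * b' * (a * b) = a' * (b' * a) * b := by simp only [mul_assoc]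
        _ = a' * (u * (a * b')) * b := by rw [hb'a]
        _ = (a' * u) * (a * b') * b := by simp only [mul_assoc]
        _ = (u * a') * (a * b') * b := by rw [hZc u huZ a' ha'N]
        _ = u * ((a' * a) * (b' * b)) := by simp only [mul_assoc]
        _ = u * (a * a' * (b * b')) := by rw [← haa', ← hbb']
    have huw : u = w := by
      have := hL.symm.trans (habab.trans hR)
      exact (mul_right_cancel this).symm
    have hyb' : y * b' * y⁻¹ = b * b' := by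
      have h2 : y * b' * y⁻¹ = (b * b')⁻¹ := eq_inv_of_mul_eq_one_right hF1b
      rw [h2]
      apply inv_eq_self_of_sq
      rw [(show Commute b b' from hbb').mul_pow, hb2, hb'2, one_mul]
    have hyu : y * u * y⁻¹ = u := by
      have e1 : y * u * y⁻¹ = (a' * (y * b' * y⁻¹)) ^ 2 := by
        rw [hu, ha'def]; exact hu_conj a b'
      rw [e1, hyb']
      have hc : Commute (a' * b) b' := by
        show a' * b * b' = b' * (a' * b)
        rw [mul_assoc, hbb', ← mul_assoc, ha'b', mul_assoc]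
      have e2 : (a' * (b * b')) ^ 2 = (a' * b) ^ 2 * b' ^ 2 := by
        rw [← mul_assoc a' b b']; exact hc.mul_pow 2
      rw [e2, hb'2, mul_one]
      have e3 : (a' * b) ^ 2 = a' * (b * a') ^ 2 * a'⁻¹ := by
        rw [pow_two, pow_two]; simp only [mul_assoc, mul_inv_cancel, mul_one]
      rw [e3, ← hw, hZc w hwZ a' ha'N, mul_assoc, mul_inv_cancel, mul_one, huw]
    have hu1 : u = 1 := hfpf u (hZN huZ) hyu
    rw [hu] at hu1
    exact comm_of_sq ha2 hb'2 hu1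
  -- the subgroup generated by S and its y-conjugate
  obtain ⟨gens, hgensdef⟩ : ∃ gens : Set X, gens = S ∪ (fun b => y * b * y⁻¹) '' S := ⟨_, rfl⟩
  have hgmem : ∀ g, g ∈ gens ↔ g ∈ S ∨ ∃ b ∈ S, y * b * y⁻¹ = g := by
    intro g; rw [hgensdef]; rfl
  have hgN : ∀ g ∈ gens, g ∈ N := by
    intro g hg
    rcases (hgmem g).1 hg with hg | ⟨b, hb, rfl⟩
    · exact ((hSmem g).1 hg).1
    · exact hconjN y b ((hSmem b).1 hb).1
  have hg2 : ∀ g ∈ gens, g ^ 2 = 1 := by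
    intro g hg
    rcases (hgmem g).1 hg with hg | ⟨b, hb, rfl⟩
    · exact hS2 g hg
    · exact hconj_sq y b (hS2 b hb)
  have hgc : ∀ g ∈ gens, ∀ h ∈ gens, g * h = h * g := by
    intro g hg h hh
    rcases (hgmem g).1 hg with hg | ⟨a, ha, rfl⟩ <;> rcases (hgmem h).1 hh with hh | ⟨b, hb, rfl⟩
    · exact hScomm g hg h hh
    · exact hS5 g hg b hb
    · exact (hS5 h hh a ha).symm
    · have e1 : y * a * y⁻¹ * (y * b * y⁻¹) = y * (a * b) * y⁻¹ := by
        simp only [mul_assoc, inv_mul_cancel_left]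
      have e2 : y * b * y⁻¹ * (y * a * y⁻¹) = y * (b * a) * y⁻¹ := by
        simp only [mul_assoc, inv_mul_cancel_left]
      rw [e1, e2, hScomm a ha b hb]
  obtain ⟨E, hEdef⟩ : ∃ E : Subgroup X, E = Subgroup.closure gens := ⟨_, rfl⟩
  have hsub : ∀ g ∈ gens, g ∈ E := by
    intro g hg; rw [hEdef]; exact Subgroup.subset_closure hg
  have hE1 : E ≤ Subgroup.centralizer gens := by
    rw [hEdef]
    exact (Subgroup.closure_le _).2
      (fun g hg => Subgroup.mem_centralizer_iff.2 (fun h hh => hgc h hh g hg))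
  have hEc : ∀ e ∈ E, ∀ f ∈ E, e * f = f * e := by
    have h2 : E ≤ Subgroup.centralizer (E : Set X) := by
      have : Subgroup.closure gens ≤ Subgroup.centralizer (E : Set X) :=
        (Subgroup.closure_le _).2 (fun g hg => Subgroup.mem_centralizer_iff.2
          (fun e he => (Subgroup.mem_centralizer_iff.1 (hE1 he) g hg).symm))
      rwa [← hEdef] at this
    intro e he f hf
    exact Subgroup.mem_centralizer_iff.1 (h2 hf) e he
  have hE2 : ∀ e ∈ E, e ^ 2 = 1 := by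
    intro e he
    rw [hEdef] at he
    have hEc' : ∀ e ∈ Subgroup.closure gens, ∀ f ∈ Subgroup.closure gens, e * f = f * e := by
      rw [← hEdef]; exact hEc
    induction he using Subgroup.closure_induction with
    | mem x hx => exact hg2 x hx
    | one => exact one_pow 2
    | mul x y' hx hy' px py =>
      rw [(show Commute x y' from hEc' x hx y' hy').mul_pow, px, py, one_mul]
    | inv x hx px => rw [inv_pow, px, inv_one]
  have hEN : E ≤ N := by rw [hEdef]; exact (Subgroup.closure_le _).2 hgN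
  have hEy : ∀ e ∈ E, y * e * y⁻¹ ∈ E := by
    intro e he
    rw [hEdef] at he
    induction he using Subgroup.closure_induction with
    | mem x hx =>
      rcases (hgmem x).1 hx with hx | ⟨a, ha, rfl⟩
      · exact hsub _ ((hgmem _).2 (Or.inr ⟨x, hx, rfl⟩))
      · have h1 : y * (y * a * y⁻¹) * y⁻¹ = (a * (y * a * y⁻¹))⁻¹ :=
          eq_inv_of_mul_eq_one_right (F1 a ((hSmem a).1 ha).1)
        rw [h1]
        exact E.inv_mem (E.mul_mem (hsub _ ((hgmem _).2 (Or.inl ha)))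
          (hsub _ ((hgmem _).2 (Or.inr ⟨a, ha, rfl⟩))))
    | one => simp
    | mul x y' hx hy' px py =>
      have : y * (x * y') * y⁻¹ = (y * x * y⁻¹) * (y * y' * y⁻¹) := by
        simp only [mul_assoc, inv_mul_cancel_left]
      rw [this]; exact E.mul_mem px py
    | inv x hx px =>
      have : y * x⁻¹ * y⁻¹ = (y * x * y⁻¹)⁻¹ := by simp only [mul_assoc, mul_inv_rev, inv_inv]
      rw [this]; exact E.inv_mem px
  have htt : ∀ n : X, t * (t * n * t⁻¹) * t⁻¹ = n := by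
    intro n
    rw [htinv]
    have : t * (t * n * t) * t = (t * t) * n * (t * t) := by simp only [mul_assoc]
    rw [this, ← pow_two, ht, one_mul, mul_one]
  have hStS : ∀ a ∈ S, t * a * t⁻¹ ∈ S := by
    intro a haS
    obtain ⟨ha, hz⟩ := (hSmem a).1 haS
    refine (hSmem _).2 ⟨hconjN t a ha, ?_⟩
    have e : (t * a * t⁻¹)⁻¹ * (t * (t * a * t⁻¹) * t⁻¹) = (a⁻¹ * (t * a * t⁻¹))⁻¹ := by
      rw [htt a]; simp only [mul_inv_rev, inv_inv]
    rw [e]; exact Z.inv_mem hz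
  have hEt : ∀ e ∈ E, t * e * t⁻¹ ∈ E := by
    intro e he
    rw [hEdef] at he
    induction he using Subgroup.closure_induction with
    | mem x hx =>
      rcases (hgmem x).1 hx with hx | ⟨a, ha, rfl⟩
      · exact hsub _ ((hgmem _).2 (Or.inl (hStS x hx)))
      · have ha1 := hStS a ha
        have e1 : t * (y * a * y⁻¹) * t⁻¹ =
            (t * y * t⁻¹) * (t * a * t⁻¹) * (t * y * t⁻¹)⁻¹ := by
          simp only [mul_assoc, mul_inv_rev, inv_inv, inv_mul_cancel_left]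
        rw [e1, hty, inv_inv, inv_conj_eq y hy]
        have h1 : y * (y * (t * a * t⁻¹) * y⁻¹) * y⁻¹ =
            ((t * a * t⁻¹) * (y * (t * a * t⁻¹) * y⁻¹))⁻¹ :=
          eq_inv_of_mul_eq_one_right (F1 _ ((hSmem _).1 ha1).1)
        rw [h1]
        exact E.inv_mem (E.mul_mem (hsub _ ((hgmem _).2 (Or.inl ha1)))
          (hsub _ ((hgmem _).2 (Or.inr ⟨_, ha1, rfl⟩))))
    | one => simp
    | mul x y' hx hy' px py =>
      have : t * (x * y') * t⁻¹ = (t * x * t⁻¹) * (t * y' * t⁻¹) := by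
        simp only [mul_assoc, inv_mul_cancel_left]
      rw [this]; exact E.mul_mem px py
    | inv x hx px =>
      have : t * x⁻¹ * t⁻¹ = (t * x * t⁻¹)⁻¹ := by simp only [mul_assoc, mul_inv_rev, inv_inv]
      rw [this]; exact E.inv_mem px
  have hA : ∀ n ∈ N, n⁻¹ * (t * n * t⁻¹) ∈ S := by
    intro n hn
    have hu : t * n * t⁻¹ ∈ N := hconjN t n hn
    refine (hSmem _).2 ⟨N.mul_mem (N.inv_mem hn) hu, ?_⟩
    have e : (n⁻¹ * (t * n * t⁻¹))⁻¹ * (t * (n⁻¹ * (t * n * t⁻¹)) * t⁻¹) =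
        ((t * n * t⁻¹)⁻¹ * n) ^ 2 := by
      have e0 : t * (n⁻¹ * (t * n * t⁻¹)) * t⁻¹ =
          (t * n * t⁻¹)⁻¹ * (t * (t * n * t⁻¹) * t⁻¹) := by
        simp only [mul_assoc, mul_inv_rev, inv_inv, inv_mul_cancel_left]
      rw [e0, htt n, pow_two]; simp only [mul_assoc, mul_inv_rev, inv_inv]
    rw [e]
    exact hsq _ (N.mul_mem (N.inv_mem hu) hn)
  have hB : ∀ n ∈ N, n⁻¹ * ((y * t * y⁻¹) * n * (y * t * y⁻¹)⁻¹) ∈ E := by
    intro n hn
    have hn1 : y⁻¹ * n * y ∈ N := hconjN' y n hn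
    have h1 := hA _ hn1
    have e : n⁻¹ * ((y * t * y⁻¹) * n * (y * t * y⁻¹)⁻¹) =
        y * ((y⁻¹ * n * y)⁻¹ * (t * (y⁻¹ * n * y) * t⁻¹)) * y⁻¹ := by
      simp only [mul_assoc, mul_inv_rev, inv_inv, mul_inv_cancel_left, inv_mul_cancel_left]
    rw [e]
    exact hsub _ ((hgmem _).2 (Or.inr ⟨_, h1, rfl⟩))
  have he4 : ∀ n ∈ N, n⁻¹ * (y * n * y⁻¹) ∈ E := by
    intro n hn
    have hyn : y * n * y⁻¹ = t * ((y * t * y⁻¹) * n * (y * t * y⁻¹)⁻¹) * t⁻¹ := by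
      have : t * ((y * t * y⁻¹) * n * (y * t * y⁻¹)⁻¹) * t⁻¹ =
          (t * (y * t * y⁻¹)) * n * (t * (y * t * y⁻¹))⁻¹ := by
        simp only [mul_assoc, mul_inv_rev, inv_inv]
      rw [this, hyt]
    have e : n⁻¹ * (y * n * y⁻¹) = (n⁻¹ * (t * n * t⁻¹)) *
        (t * (n⁻¹ * ((y * t * y⁻¹) * n * (y * t * y⁻¹)⁻¹)) * t⁻¹) := by
      rw [hyn]; simp only [mul_assoc, inv_mul_cancel_left, mul_inv_cancel_left]
    rw [e]
    exact E.mul_mem (hsub _ ((hgmem _).2 (Or.inl (hA n hn)))) (hEt _ (hB n hn))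
  intro n hn
  exact hE2 n (fpf_lift N E y hEN hEy hfpf n hn (he4 n hn))

/-- **`S₃` acting with a fixed-point-free element of order 3**: if all elements of `N` and of the
coset `tN` have order dividing 4, then `N` has exponent dividing 2. -/
theorem exp_two_of_S3 {X : Type u} [Group X] [Finite X] (N : Subgroup X) [N.Normal]
    (y t : X) (hy : y ^ 3 = 1) (ht : t ^ 2 = 1) (hty : t * y * t⁻¹ = y⁻¹)
    (hfpf : ∀ n ∈ N, y * n * y⁻¹ = n → n = 1)
    (ht4 : ∀ n ∈ N, (t * n) ^ 4 = 1)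
    (hN4 : ∀ n ∈ N, n ^ 4 = 1) :
    ∀ n ∈ N, n ^ 2 = 1 :=
  exp_two_aux (Nat.card X) X N y t rfl hy ht hty hfpf ht4 hN4

end main

end Cfsg.Agent.Lib.Helper29.Ord1234
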